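import Mathlib
import Cfsg.Agent.Lib.InvC2.Forms
import Cfsg.Agent.Lib.AutPO.Parity

/-!
Counting the classes of involutions of `Ω` in characteristic two.
-/

set_option autoImplicit false
set_option linter.unusedSectionVars false
set_option linter.unusedVariables false

open scoped Matrix

namespace Cfsg.Agent.Lib.InvC2

open Cfsg.Agent.Lib.Classical Cfsg.Agent.Lib.Classical.Witt Cfsg.Agent.Lib.Classical.Abs Cfsg.Agent.Lib.Classical.Orth
open Cfsg.Agent.Lib.Known3.OmegaTrans Cfsg.Agent.Lib.Known3.OmegaCalc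
open Cfsg.Agent.Lib.Known3.Spinor Cfsg.Agent.Lib.Known3.OmegaSum
open Cfsg.Agent.Lib.AutPO
open Module

local notation "P" => QuadraticMap.polarBilin

section top

variable {F V : Type*} [Field F] [Fintype F] [AddCommGroup V] [Module F V] [FiniteDimensional F V] {Q : QuadraticForm F V}

local notation "orth" => LinearMap.BilinForm.orthogonal (P Q)

/-- The parity criterion, from generation by reflections. -/
theorem mem_comm_even_top (h2 : (2 : F) = 0) (hQ : (P Q).Nondegenerate)
    (htop : Rf Q = ⊤) (L : List (NS Q)) :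
    prodL L ∈ commutator (OG Q) ↔ Even L.length := by
  classical
  constructor
  · intro hm
    let D : OG Q →* ℤˣ :=
      { toFun := fun g => (-1) ^ rk g
        map_one' := by rw [rk_one]; rfl
        map_mul' := by
          intro g g'
          obtain ⟨L₁, rfl⟩ := exists_list (show g ∈ Rf Q by rw [htop]; trivial)
          obtain ⟨L₂, rfl⟩ := exists_list (show g' ∈ Rf Q by rw [htop]; trivial)
          rw [← prodL_append]
          have h3 := rk_prodL h2 hQ (L₁ ++ L₂)
          have h4 := rk_prodL h2 hQ L₁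
          have h5 := rk_prodL h2 hQ L₂
          rw [List.length_append] at h3
          rw [← pow_add]
          have h6 : Even (rk (prodL (L₁ ++ L₂))) ↔ Even (rk (prodL L₁) + rk (prodL L₂)) := by
            rw [h3, Nat.even_add, Nat.even_add, h4, h5]
          by_cases h7 : Even (rk (prodL (L₁ ++ L₂)))
          · rw [h7.neg_one_pow, (h6.1 h7).neg_one_pow]
          · have h8 : ¬ Even (rk (prodL L₁) + rk (prodL L₂)) := fun h => h7 (h6.2 h)
            rw [Nat.not_even_iff_odd] at h7 h8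
            rw [h7.neg_one_pow, h8.neg_one_pow] }
    have h3 : D (prodL L) = 1 := hom_comm D hm
    have h4 : ((-1 : ℤˣ)) ^ rk (prodL L) = 1 := h3
    rw [← rk_prodL h2 hQ L]
    by_contra hodd
    rw [Nat.not_even_iff_odd] at hodd
    rw [hodd.neg_one_pow] at h4
    exact absurd h4 (by decide)
  · intro hL
    refine mem_of_counts (fun _ => True) ?_ L (by simpa using hL) (by simp)
    intro v w _
    obtain ⟨c, hc⟩ := exists_sq_of_two_eq_zero h2 (Q v.1 / Q w.1)
    have hc0 : c ≠ 0 := by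
      rintro rfl
      rw [mul_zero] at hc
      exact (div_ne_zero v.2 w.2) hc.symm
    refine refl_mul_refl_mem hQ v.2 w.2 hc0 ?_
    rw [hc]
    exact div_mul_cancel₀ _ w.2

lemma exists_prodL_top (htop : Rf Q = ⊤) (g : OG Q) : ∃ L : List (NS Q), g = prodL L :=
  exists_list (show g ∈ Rf Q by rw [htop]; trivial)

theorem mem_comm_iff_rk (h2 : (2 : F) = 0) (hQ : (P Q).Nondegenerate) (htop : Rf Q = ⊤) (g : OG Q) :
    g ∈ commutator (OG Q) ↔ Even (rk g) := by
  obtain ⟨L, rfl⟩ := exists_prodL_top htop g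
  rw [mem_comm_even_top h2 hQ htop, rk_prodL h2 hQ]

/-- Conjugation by an element with a non-singular fixed vector can be done inside `Ω`. -/
theorem omega_conj_of_fixed_top (h2 : (2 : F) = 0) (hQ : (P Q).Nondegenerate) (htop : Rf Q = ⊤)
    (t s g : OG Q) (hg : g * t * g⁻¹ = s) {u : V} (hu : Q u ≠ 0) (htu : t.1 u = u) :
    ∃ g' ∈ commutator (OG Q), g' * t * g'⁻¹ = s := by
  obtain ⟨L, rfl⟩ := exists_prodL_top htop g
  by_cases hL : Even L.length
  · exact ⟨prodL L, (mem_comm_even_top h2 hQ htop L).2 hL, hg⟩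
  · refine ⟨prodL (L ++ [⟨u, hu⟩]), (mem_comm_even_top h2 hQ htop _).2 ?_, ?_⟩
    · rw [List.length_append, List.length_singleton, Nat.even_add_one]
      exact hL
    · have hc : t * refl Q u hu * t⁻¹ = refl Q u hu := by
        have h3 : Q (t.1 u) ≠ 0 := by rw [htu]; exact hu
        rw [refl_conj t hu h3]
        exact refl_congr htu h3 hu
      have hc' : refl Q u hu * t * (refl Q u hu)⁻¹ = t := by
        rw [mul_inv_eq_iff_eq_mul] at hc ⊢
        rw [hc]
      have e : prodL [(⟨u, hu⟩ : NS Q)] = refl Q u hu := by simp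
      rw [prodL_append, e]
      rw [← hg]
      calc prodL L * refl Q u hu * t * (prodL L * refl Q u hu)⁻¹
          = prodL L * (refl Q u hu * t * (refl Q u hu)⁻¹) * (prodL L)⁻¹ := by group
        _ = _ := by rw [hc']

/-- Transitivity on vectors of a given norm, when the Witt index is at most one. -/
theorem move_of_witt (h2 : (2 : F) = 0) (hsq : ∀ a : F, ∃ t, t * t = a)
    (hQ : (P Q).Nondegenerate)
    (hW : ∀ U : Submodule F V, (∀ w ∈ U, Q w = 0) → finrank F U ≤ 1) {x x' : V} (hx : Q x ≠ 0)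
    (hxx' : Q x' = Q x) : ∃ h ∈ Rf Q, h.1 x' = x := by
  classical
  by_cases heq : x' = x
  · exact ⟨1, Subgroup.one_mem _, heq⟩
  by_cases hd : Q (x' - x) = 0
  swap
  · exact ⟨refl Q (x' - x) hd, refl_mem_Rf _, refl_move hxx' hd⟩
  have hx0 : x ≠ 0 := by
    rintro rfl
    simp at hx
  have hPxx' : P Q x x' = 0 := by
    have h1 : Q (x' - x) = Q x' + Q x - P Q x x' := by
      rw [Q_sub, pol_comm Q x' x]
    rw [hd, hxx'] at h1
    linear_combination (Q x) * h2 + h1
  -- independence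
  have hnot : x' ∉ Submodule.span F {x} := by
    intro hmem
    obtain ⟨c, rfl⟩ := Submodule.mem_span_singleton.mp hmem
    rw [Q_smul] at hxx'
    have h3 : (c - 1) * (c - 1) = 0 := by
      have : c * c = 1 := mul_right_cancel₀ hx (by rw [hxx', one_mul])
      linear_combination this - c * h2 + h2
    have hc : c = 1 := sub_eq_zero.mp (mul_self_eq_zero.mp h3)
    exact heq (by rw [hc, one_smul])
  have hnot' : x ∉ Submodule.span F {x'} := by
    intro hmem
    obtain ⟨c, hc⟩ := Submodule.mem_span_singleton.mp hmem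
    have hc0 : c ≠ 0 := by
      rintro rfl
      rw [zero_smul] at hc
      exact hx0 hc.symm
    apply hnot
    refine Submodule.mem_span_singleton.mpr ⟨c⁻¹, ?_⟩
    rw [← hc, smul_smul, inv_mul_cancel₀ hc0, one_smul]
  -- a vector pairing non-trivially with one and trivially with the other
  have hpair : ∀ y y' : V, y' ∉ Submodule.span F {y} → ∃ b, P Q y b = 0 ∧ P Q y' b = 1 := by
    intro y y' hn
    rw [← LinearMap.BilinForm.orthogonal_orthogonal hQ P_refl (Submodule.span F {y}), mem_orth] at hn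
    push Not at hn
    obtain ⟨b, hb, hb'⟩ := hn
    refine ⟨(P Q y' b)⁻¹ • b, ?_, ?_⟩
    · rw [map_smul, mem_orth.mp hb y (Submodule.mem_span_singleton_self y), smul_zero]
    · rw [pol_comm] at hb'
      rw [map_smul, smul_eq_mul, inv_mul_cancel₀ hb']
  obtain ⟨b, hb1, hb2⟩ := hpair x x' hnot
  obtain ⟨a, ha1, ha2⟩ := hpair x' x hnot'
  set z₀ := a + b with hz₀
  have hz1 : P Q x z₀ = 1 := by rw [hz₀, map_add, ha2, hb1, add_zero]
  have hz2 : P Q x' z₀ = 1 := by rw [hz₀, map_add, ha1, hb2, zero_add]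
  have hPxx : P Q x x = 0 := pol_self_two h2 x
  -- a nonsingular vector in the coset
  have hQz₀ : Q z₀ ≠ 0 := by
    intro h0
    have hy0 : x' - x ≠ 0 := sub_ne_zero.2 heq
    have hz00 : z₀ ≠ 0 := by
      rintro h4
      rw [h4, map_zero] at hz1
      exact zero_ne_one hz1
    have hzy : P Q z₀ (x' - x) = 0 := by
      rw [map_sub, pol_comm, hz2, pol_comm, hz1, sub_self]
    have hall : ∀ w ∈ (Submodule.span F {z₀} ⊔ Submodule.span F {x' - x} : Submodule F V), Q w = 0 := by
      intro w hw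
      obtain ⟨u₁, hu₁, u₂, hu₂, rfl⟩ := Submodule.mem_sup.mp hw
      obtain ⟨s₁, rfl⟩ := Submodule.mem_span_singleton.mp hu₁
      obtain ⟨s₂, rfl⟩ := Submodule.mem_span_singleton.mp hu₂
      rw [Q_add, Q_smul, Q_smul, h0, hd, map_smul, map_smul, LinearMap.smul_apply, hzy]
      simp
    have h5 := hW _ hall
    have h15 := Submodule.finrank_sup_add_finrank_inf_eq (Submodule.span F {z₀}) (Submodule.span F {x' - x})
    have h16 : Submodule.span F {z₀} ⊓ Submodule.span F {x' - x} = (⊥ : Submodule F V) := by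
      rw [inf_comm]
      refine ((Submodule.disjoint_span_singleton' hz00).mpr ?_).eq_bot
      intro hmem
      obtain ⟨c, hc⟩ := Submodule.mem_span_singleton.mp hmem
      have h7 : P Q x (x' - x) = 0 := by rw [map_sub, hPxx', hPxx, sub_self]
      rw [← hc, map_smul, h7, smul_zero] at hz1
      exact zero_ne_one hz1
    rw [h16, finrank_bot, add_zero, finrank_span_singleton hy0, finrank_span_singleton hz00] at h15
    omega
  obtain ⟨z₁, hz₁, h1, h3⟩ : ∃ z₁, Q z₁ ≠ 0 ∧ P Q x z₁ = 1 ∧ P Q x' z₁ = 1 := ⟨z₀, hQz₀, hz1, hz2⟩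
  -- scale
  obtain ⟨lam, hlam⟩ := hsq (Q x / Q z₁)
  have hlam0 : lam ≠ 0 := by
    rintro rfl
    rw [mul_zero] at hlam
    exact (div_ne_zero hx hz₁) hlam.symm
  set z := lam • z₁ with hz
  have hQz : Q z = Q x := by
    rw [hz, Q_smul, hlam]
    field_simp
  have hPzx : P Q x z = lam := by rw [hz, map_smul, h1, smul_eq_mul, mul_one]
  have hPzx' : P Q x' z = lam := by rw [hz, map_smul, h3, smul_eq_mul, mul_one]
  have hQ1 : Q (z - x) ≠ 0 := by
    have : Q (z - x) = Q z + Q x - P Q x z := by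
      rw [Q_sub, pol_comm Q z x]
    rw [this, hQz, hPzx, ← two_mul, h2, zero_mul, zero_sub]
    exact neg_ne_zero.mpr hlam0
  have hQ2 : Q (x' - z) ≠ 0 := by
    have : Q (x' - z) = Q x' + Q z - P Q x' z := Q_sub x' z
    rw [this, hxx', hQz, hPzx', ← two_mul, h2, zero_mul, zero_sub]
    exact neg_ne_zero.mpr hlam0
  refine ⟨refl Q (z - x) hQ1 * refl Q (x' - z) hQ2,
    Subgroup.mul_mem _ (refl_mem_Rf _) (refl_mem_Rf _), ?_⟩
  rw [mul_apply', refl_move (by rw [hxx', hQz]) hQ2, refl_move hQz hQ1]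

/-- Generation by reflections when the Witt index is at most one. -/
theorem Rf_eq_top_of_witt (h2 : (2 : F) = 0) (hQ : (P Q).Nondegenerate)
    (hW : ∀ U : Submodule F V, (∀ w ∈ U, Q w = 0) → finrank F U ≤ 1) : Rf Q = ⊤ := by
  have hsq := exists_sq_of_two_eq_zero (F := F) h2
  rw [eq_top_iff]
  rintro g -
  by_cases hall : ∀ v, Q v = 0
  · have hz : ∀ v : V, v = 0 := by
      intro v
      apply hQ.1
      intro y
      have := hall (v + y)
      rw [Q_add, hall v, hall y] at this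
      simpa using this
    have : g = 1 := OG_ext fun v => by rw [hz v, map_zero]; simp [hz]
    rw [this]
    exact Subgroup.one_mem _
  · push Not at hall
    obtain ⟨x, hx⟩ := hall
    obtain ⟨h, hh, hhx⟩ := move_of_witt h2 hsq hQ hW hx (OG_pres g x)
    have h1 := even_mem_of_fix h2 hsq hQ hx (h * g) (by rw [mul_apply', hhx])
    have : g = h⁻¹ * (h * g) := by group
    rw [this]
    exact Subgroup.mul_mem _ (Subgroup.inv_mem _ hh) h1

end top

section count

variable {ι : Type} [Fintype ι] [DecidableEq ι] {F : Type*} [Field F] [Fintype F] {Q : QuadraticForm F (ι → F)}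

/-- Counting classes of involutions of `Ω` by a complete invariant. -/
theorem count_Omega {α : Type*} [DecidableEq α] (h2 : (2 : F) = 0) (hQ : (P Q).Nondegenerate) (htop : Rf Q = ⊤) (f : OG Q → α) (S : Finset α)
    (hinv : ∀ t : OG Q, t * t = 1 → t ≠ 1 → Even (rk t) → f t ∈ S)
    (hsurj : ∀ a ∈ S, ∃ t : OG Q, t * t = 1 ∧ t ≠ 1 ∧ Even (rk t) ∧ f t = a)
    (hconj : ∀ t s : OG Q, t * t = 1 → s * s = 1 → t ≠ 1 → s ≠ 1 → Even (rk t) → Even (rk s) →
      ((∃ c ∈ commutator (OG Q), c * t * c⁻¹ = s) ↔ f t = f s)) {q : (ι → F) → F} (hq : ⇑Q = q) :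
    Nat.card {C : ConjClasses ↥(Cfsg.Omega F q) // ∃ g : ↥(Cfsg.Omega F q), ConjClasses.mk g = C ∧ orderOf g = 2} = S.card := by
  subst hq
  let T : ↥(Cfsg.Omega F (⇑Q)) → OG Q := fun g => toOG Q g.1
  have hTmul : ∀ x y, T (x * y) = T x * T y := fun x y => map_mul (toOG Q) x.1 y.1
  have hTone : T 1 = 1 := map_one (toOG Q)
  have hTinj : Function.Injective T := fun x y h => Subtype.ext ((toOG Q).injective h)
  have hTmem : ∀ g, T g ∈ commutator (OG Q) := fun g => (mem_Omega_iff Q g.1).1 g.2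
  have hord : ∀ g : ↥(Cfsg.Omega F (⇑Q)), orderOf g = 2 ↔ T g * T g = 1 ∧ T g ≠ 1 := by
    intro g
    have e1 : ∀ x, T x = 1 ↔ x = 1 := fun x => ⟨fun h => hTinj (h.trans hTone.symm), fun h => by rw [h, hTone]⟩
    rw [orderOf_two_iff, ← hTmul, ne_eq, ne_eq, e1, e1]
  apply card_invol_classes (fun g => f (T g)) S
  · intro g hg
    obtain ⟨h1, h3⟩ := (hord g).1 hg
    exact hinv _ h1 h3 ((mem_comm_iff_rk h2 hQ htop _).1 (hTmem g))
  · intro a ha
    obtain ⟨t, h1, h3, h4, h5⟩ := hsurj a ha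
    have hmem : (toOG Q).symm t ∈ Cfsg.Omega F (⇑Q) := by
      rw [mem_Omega_iff, MulEquiv.apply_symm_apply]
      exact (mem_comm_iff_rk h2 hQ htop _).2 h4
    have hT : T ⟨_, hmem⟩ = t := MulEquiv.apply_symm_apply _ _
    refine ⟨⟨_, hmem⟩, ?_, ?_⟩
    · rw [hord, hT]
      exact ⟨h1, h3⟩
    · change f (T ⟨_, hmem⟩) = a
      rw [hT, h5]
  · intro g h hg hh
    obtain ⟨g1, g3⟩ := (hord g).1 hg
    obtain ⟨h1, h3⟩ := (hord h).1 hh
    have key := hconj (T g) (T h) g1 h1 g3 h3 ((mem_comm_iff_rk h2 hQ htop _).1 (hTmem g)) ((mem_comm_iff_rk h2 hQ htop _).1 (hTmem h))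
    rw [← key]
    constructor
    · intro hc
      obtain ⟨c, hc⟩ := isConj_iff.1 hc
      refine ⟨T c, hTmem c, ?_⟩
      have e : T c⁻¹ = (T c)⁻¹ := map_inv (toOG Q) c.1
      rw [← e, ← hTmul, ← hTmul, hc]
    · rintro ⟨c, h4, h5⟩
      have hmem : (toOG Q).symm c ∈ Cfsg.Omega F (⇑Q) := by
        rw [mem_Omega_iff, MulEquiv.apply_symm_apply]
        exact h4
      have hT : T ⟨_, hmem⟩ = c := MulEquiv.apply_symm_apply _ _
      rw [isConj_iff]
      refine ⟨⟨_, hmem⟩, hTinj ?_⟩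
      have e : T (⟨_, hmem⟩ : ↥(Cfsg.Omega F (⇑Q)))⁻¹ = (T ⟨_, hmem⟩)⁻¹ := map_inv (toOG Q) _
      rw [hTmul, hTmul, e, hT, h5]

/-- The set of invariants for the `Ω⁻`. -/
def SsetE (a b : ℕ) : Finset (ℕ × Bool) :=
  ((Finset.Icc 1 a).filter Even).image (fun s => (s, false)) ∪ ((Finset.Icc 1 b).filter Even).image (fun s => (s, true))

lemma mem_SsetE_false {a b s : ℕ} : (s, false) ∈ SsetE a b ↔ 1 ≤ s ∧ s ≤ a ∧ Even s := by
  simp [SsetE, and_assoc]

lemma mem_SsetE_true {a b s : ℕ} : (s, true) ∈ SsetE a b ↔ 1 ≤ s ∧ s ≤ b ∧ Even s := by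
  simp [SsetE, and_assoc]

lemma card_SsetE (a b : ℕ) : (SsetE a b).card = a / 2 + b / 2 := by
  rw [SsetE, Finset.card_union_of_disjoint, Finset.card_image_of_injective, Finset.card_image_of_injective, card_even_Icc, card_even_Icc]
  · intro x y h
    exact congrArg Prod.fst h
  · intro x y h
    exact congrArg Prod.fst h
  · rw [Finset.disjoint_left]
    intro x hx hy
    simp only [Finset.mem_image] at hx hy
    obtain ⟨s, -, rfl⟩ := hx
    obtain ⟨t, -, ht⟩ := hy
    exact absurd (congrArg Prod.snd ht) (by simp)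

end count

/-- The number of classes of involutions of `Ω⁻`. -/
theorem count_omega_minus {F : Type*} [Field F] [Fintype F] (h2 : (2 : F) = 0) (m : ℕ) (hm : 1 ≤ m) {a b : F} (hab : ∀ z₁ z₂ : F, z₁ ^ 2 + a * z₁ * z₂ + b * z₂ ^ 2 = 0 → z₁ = 0 ∧ z₂ = 0) :
    Nat.card {C : ConjClasses ↥(Cfsg.Omega F (Cfsg.quadFormMinus (m - 1) F a b)) // ∃ g : ↥(Cfsg.Omega F (Cfsg.quadFormMinus (m - 1) F a b)), ConjClasses.mk g = C ∧ orderOf g = 2} = m / 2 + (m - 1) / 2 := by
  have hV : finrank F ((Fin (m - 1) ⊕ Fin (m - 1)) ⊕ Fin 2 → F) = 2 * m := by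
    rw [Module.finrank_fintype_fun_eq_card]
    simp
    omega
  have hQ := Qminus_nondeg hab (m - 1)
  have hsing : ∀ U : Submodule F ((Fin (m - 1) ⊕ Fin (m - 1)) ⊕ Fin 2 → F), (∀ w ∈ U, Qminus (m - 1) F a b w = 0) → finrank F U ≤ m - 1 := by
    intro U hU
    exact Cfsg.Agent.Lib.Known3.Witt.finrank_le_of_singular_minus (m - 1) a b hab U (by
      intro w hw
      rw [← coe_Qminus]
      exact hU w hw)
  have htop : Rf (Qminus (m - 1) F a b) = ⊤ := by
    by_cases hc : Fintype.card F ≠ 2 ∨ finrank F ((Fin (m - 1) ⊕ Fin (m - 1)) ⊕ Fin 2 → F) ≠ 4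
    · exact Rf_eq_top hQ hc
    · push Not at hc
      have hm2 : m - 1 = 1 := by omega
      refine Rf_eq_top_of_witt h2 hQ ?_
      intro U hU
      have := hsing U hU
      omega
  rw [count_Omega h2 hQ htop invar (SsetE m (m - 1)) _ _ _ (coe_Qminus (m - 1) a b), card_SsetE]
  · intro t h1 h3 h4
    have hpos := (rk_pos_iff t).2 h3
    have h5 := two_rk_le h2 t h1
    by_cases h : ∀ v, Qminus (m - 1) F a b (t.1 v - v) = 0
    · have e : invar t = (rk t, true) := by simp [invar, h]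
      rw [e, mem_SsetE_true]
      refine ⟨hpos, ?_, h4⟩
      exact hsing (Rg t) (by
        intro w hw
        obtain ⟨c, rfl⟩ := mem_Rg.1 hw
        exact h c)
    · have e : invar t = (rk t, false) := by simp [invar, h]
      rw [e, mem_SsetE_false]
      exact ⟨hpos, by omega, h4⟩
  · rintro ⟨s, (_ | _)⟩ hx
    · rw [mem_SsetE_false] at hx
      obtain ⟨h3, h4, h5⟩ := hx
      obtain ⟨t, h6, h7, h8⟩ : ∃ t : OG (Qminus (m - 1) F a b), t * t = 1 ∧ rk t = s ∧ ∃ v, Qminus (m - 1) F a b (t.1 v - v) ≠ 0 := by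
        by_cases hs : s ≤ m - 1
        · exact (hfMinus (m - 1) a b).rep_nonalt h2 h3 hs
        · have : s = m - 1 + 1 := by omega
          subst this
          exact rep_top h2 (m - 1) hab
      have hne : t ≠ 1 := (rk_pos_iff t).1 (by omega)
      refine ⟨t, h6, hne, by rw [h7]; exact h5, ?_⟩
      have : ¬ ∀ v, Qminus (m - 1) F a b (t.1 v - v) = 0 := by
        push Not
        exact h8
      simp [invar, this, h7]
    · rw [mem_SsetE_true] at hx
      obtain ⟨h3, h4, k, hk⟩ := hx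
      obtain ⟨t, h6, h7, h8⟩ := (hfMinus (m - 1) a b).rep_alt h2 (show 2 * k ≤ m - 1 by omega)
      have hne : t ≠ 1 := (rk_pos_iff t).1 (by omega)
      refine ⟨t, h6, hne, by rw [h7]; exact even_two_mul k, ?_⟩
      simp [invar, h8, h7]
      omega
  · intro t s h1 h3 h4 h5 h6 h7
    have key := og_conj_iff h2 hQ t s h1 h3
    have e : invar t = invar s ↔ (rk t = rk s ∧ ((∀ v, Qminus (m - 1) F a b (t.1 v - v) = 0) ↔ (∀ v, Qminus (m - 1) F a b (s.1 v - v) = 0))) := by
      simp only [invar, Prod.mk.injEq, decide_eq_decide]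
    rw [e, ← key]
    constructor
    · rintro ⟨c, -, hc⟩
      exact ⟨c, hc⟩
    · rintro ⟨g, hg⟩
      rcases exists_fixed_nonsing h2 hQ t h1 with ⟨u, hu, htu⟩ | ⟨h8, h9⟩
      · exact omega_conj_of_fixed_top h2 hQ htop t s g hg hu htu
      · exfalso
        have := hsing (Rg t) (by
          intro w hw
          obtain ⟨c, rfl⟩ := mem_Rg.1 hw
          exact h9 c)
        have h10 : finrank F (Rg t) = rk t := rfl
        omega

section plus

variable {F : Type*} [Field F] [Fintype F]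

/-- The standard Lagrangian subspace. -/
abbrev U0P (m : ℕ) (F : Type*) [Field F] : Submodule F (Fin m ⊕ Fin m → F) :=
  LinearMap.ker (LinearMap.funLeft F F (Sum.inr : Fin m → Fin m ⊕ Fin m))

/-- The kind of an element of the plus form. -/
noncomputable def kindP (m : ℕ) (t : OG (Qplus m F)) : ℕ :=
  haveI := Classical.propDecidable
  if ∀ v, Qplus m F (t.1 v - v) = 0 then (if rk t = m ∧ Par m (U0P m F) (Rg t) then 2 else 1) else 0

/-- The set of invariants for `Ω⁺`. -/
noncomputable def SsetP (m : ℕ) : Finset (ℕ × ℕ) :=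
  (((Finset.Icc 1 m).filter Even).image (fun s => (s, 0)) ∪ ((Finset.Icc 1 m).filter Even).image (fun s => (s, 1))) ∪
    (if Even m then {(m, 2)} else ∅)

lemma mem_SsetP {m s k : ℕ} : (s, k) ∈ SsetP m ↔ (k = 0 ∧ 1 ≤ s ∧ s ≤ m ∧ Even s) ∨ (k = 1 ∧ 1 ≤ s ∧ s ≤ m ∧ Even s) ∨ (k = 2 ∧ s = m ∧ Even m) := by
  by_cases h : Even m
  · simp [SsetP, h, and_assoc]
    tauto
  · simp [SsetP, h, and_assoc]
    tauto

lemma card_SsetP (m : ℕ) : (SsetP m).card = 2 * (m / 2) + (if Even m then 1 else 0) := by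
  rw [SsetP, Finset.card_union_of_disjoint, Finset.card_union_of_disjoint, Finset.card_image_of_injective, Finset.card_image_of_injective, card_even_Icc]
  · split_ifs <;> simp <;> ring
  · intro x y h
    exact congrArg Prod.fst h
  · intro x y h
    exact congrArg Prod.fst h
  · rw [Finset.disjoint_left]
    intro x hx hy
    simp only [Finset.mem_image] at hx hy
    obtain ⟨s, -, rfl⟩ := hx
    obtain ⟨t, -, ht⟩ := hy
    exact absurd (congrArg Prod.snd ht) (by simp)
  · rw [Finset.disjoint_left]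
    rintro ⟨s, k⟩ hx hy
    split_ifs at hy with h
    · rw [Finset.mem_singleton] at hy
      have h1 : k = 2 := congrArg Prod.snd hy
      subst h1
      simp at hx
    · simp at hy

lemma isLagr_Rg {m : ℕ} {Q : QuadraticForm F (Fin m ⊕ Fin m → F)} (t : OG Q) (halt : ∀ v, Q (t.1 v - v) = 0) (hr : rk t = m) : IsLagr Q m (Rg t) where
  dim := hr
  ts := by
    intro w hw
    obtain ⟨c, rfl⟩ := mem_Rg.1 hw
    exact halt c

/-- A representative in each family. -/
theorem exists_rep_par (h2 : (2 : F) = 0) {m : ℕ} (hm : 1 ≤ m) (hE : Even m) (hfin : Fintype.card F ≠ 2 ∨ finrank F (Fin m ⊕ Fin m → F) ≠ 4) (b : Prop) :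
    ∃ t : OG (Qplus m F), t * t = 1 ∧ rk t = m ∧ (∀ v, Qplus m F (t.1 v - v) = 0) ∧ (Par m (U0P m F) (Rg t) ↔ b) := by
  have hQ := Qplus_nondeg (F := F) m
  obtain ⟨k, hk⟩ := hE
  obtain ⟨t₀, h1, h3, h4⟩ := (hfPlus (F := F) m).rep_alt h2 (show 2 * k ≤ m by omega)
  have hr₀ : rk t₀ = m := by omega
  by_cases hb : Par m (U0P m F) (Rg t₀) ↔ b
  · exact ⟨t₀, h1, hr₀, h4, hb⟩
  let i : Fin m := ⟨0, hm⟩
  have hv : Qplus m F ((hfPlus m).e i + (hfPlus m).f i) ≠ 0 := by
    rw [Q_add, (hfPlus m).Qe, (hfPlus m).Qf, (hfPlus m).ef]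
    simp
  set r := refl (Qplus m F) _ hv with hr
  set t₁ : OG (Qplus m F) := r * t₀ * r⁻¹ with ht₁
  have h5 : t₁ * t₁ = 1 := by
    rw [ht₁]
    calc r * t₀ * r⁻¹ * (r * t₀ * r⁻¹) = r * (t₀ * t₀) * r⁻¹ := by group
      _ = 1 := by rw [h1]; group
  obtain ⟨h6, h7⟩ := (og_conj_iff h2 hQ t₀ t₁ h1 h5).1 ⟨r, rfl⟩
  have hU₀ : IsLagr (Qplus m F) m (U0P m F) := U0_lagr
  have hU₁ : IsLagr (Qplus m F) m (Rg t₀) := isLagr_Rg t₀ h4 hr₀
  have hU₂ : IsLagr (Qplus m F) m (Rg t₁) := isLagr_Rg t₁ (h7.1 h4) (by omega)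
  have h8 : ¬ Par m (Rg t₀) (Rg t₁) := by
    have h9 := parity_prodL hQ finrank_plus hU₁ [⟨_, hv⟩]
    have e : prodL [(⟨_, hv⟩ : NS (Qplus m F))] = r := by simp [hr]
    rw [e, im_Rg_conj t₀ t₁ r rfl] at h9
    intro h10
    have h11 := h9.1 h10
    simp at h11
  have h9 := par_trans hQ hfin finrank_plus hU₀ hU₁ hU₂
  refine ⟨t₁, h5, by omega, h7.1 h4, ?_⟩
  rw [h9]
  tauto

set_option maxHeartbeats 2000000 in
/-- The number of classes of involutions of `Ω⁺`. -/
theorem count_omega_plus (h2 : (2 : F) = 0) (m : ℕ) (hm : 1 ≤ m) (hc : Fintype.card F ≠ 2 ∨ m ≠ 2) :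
    Nat.card {C : ConjClasses ↥(Cfsg.Omega F (Cfsg.quadFormPlus m F)) // ∃ g : ↥(Cfsg.Omega F (Cfsg.quadFormPlus m F)), ConjClasses.mk g = C ∧ orderOf g = 2} = 2 * (m / 2) + (if Even m then 1 else 0) := by
  have hV : finrank F (Fin m ⊕ Fin m → F) = 2 * m := finrank_plus
  have hQ := Qplus_nondeg (F := F) m
  have hfin : Fintype.card F ≠ 2 ∨ finrank F (Fin m ⊕ Fin m → F) ≠ 4 := by
    rcases hc with h | h
    · exact Or.inl h
    · right
      omega
  have htop : Rf (Qplus m F) = ⊤ := Rf_eq_top hQ hfin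
  have hU₀ : IsLagr (Qplus m F) m (U0P m F) := U0_lagr
  have hk1 : ∀ t : OG (Qplus m F), kindP m t = 0 ↔ ¬ ∀ v, Qplus m F (t.1 v - v) = 0 := by
    intro t
    rw [kindP]
    split_ifs <;> simp_all
  have hk2 : ∀ t : OG (Qplus m F), kindP m t = 2 ↔ ((∀ v, Qplus m F (t.1 v - v) = 0) ∧ rk t = m ∧ Par m (U0P m F) (Rg t)) := by
    intro t
    rw [kindP]
    split_ifs <;> simp_all
  have hk3 : ∀ t : OG (Qplus m F), kindP m t = 0 ∨ kindP m t = 1 ∨ kindP m t = 2 := by
    intro t
    rw [kindP]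
    split_ifs <;> simp
  rw [count_Omega h2 hQ htop (fun t => (rk t, kindP m t)) (SsetP m) _ _ _ (coe_Qplus m), card_SsetP]
  · intro t h1 h3 h4
    have hpos := (rk_pos_iff t).2 h3
    have h5 := two_rk_le h2 t h1
    rw [hV] at h5
    rw [mem_SsetP]
    rcases hk3 t with h | h | h
    · exact Or.inl ⟨h, hpos, by omega, h4⟩
    · exact Or.inr (Or.inl ⟨h, hpos, by omega, h4⟩)
    · obtain ⟨h6, h7, h8⟩ := (hk2 t).1 h
      exact Or.inr (Or.inr ⟨h, h7, by rw [← h7]; exact h4⟩)
  · rintro ⟨s, k⟩ hx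
    rw [mem_SsetP] at hx
    rcases hx with ⟨rfl, h3, h4, h5⟩ | ⟨rfl, h3, h4, h5⟩ | ⟨rfl, rfl, h5⟩
    · obtain ⟨t, h6, h7, h8⟩ := (hfPlus (F := F) m).rep_nonalt h2 h3 h4
      have hne : t ≠ 1 := (rk_pos_iff t).1 (by omega)
      refine ⟨t, h6, hne, by rw [h7]; exact h5, ?_⟩
      have : ¬ ∀ v, Qplus m F (t.1 v - v) = 0 := by
        push Not
        exact h8
      rw [h7, (hk1 t).2 this]
    · by_cases hs : s = m
      · subst hs
        obtain ⟨t, h6, h7, h8, h9⟩ := exists_rep_par (F := F) h2 hm h5 hfin False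
        have hne : t ≠ 1 := (rk_pos_iff t).1 (by omega)
        refine ⟨t, h6, hne, by rw [h7]; exact h5, ?_⟩
        have hk : kindP s t = 1 := by
          rcases hk3 t with h | h | h
          · exact absurd h8 ((hk1 t).1 h)
          · exact h
          · exact (h9.1 ((hk2 t).1 h).2.2).elim
        rw [h7, hk]
      · obtain ⟨c, hc'⟩ := h5
        obtain ⟨t, h6, h7, h8⟩ := (hfPlus (F := F) m).rep_alt h2 (show 2 * c ≤ m by omega)
        have hne : t ≠ 1 := (rk_pos_iff t).1 (by omega)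
        refine ⟨t, h6, hne, by rw [h7]; exact even_two_mul c, ?_⟩
        have hr : rk t = s := by omega
        have hk : kindP m t = 1 := by
          rcases hk3 t with h | h | h
          · exact absurd h8 ((hk1 t).1 h)
          · exact h
          · exact absurd (((hk2 t).1 h).2.1) (by omega)
        rw [hr, hk]
    · obtain ⟨t, h6, h7, h8, h9⟩ := exists_rep_par (F := F) h2 hm h5 hfin True
      have hne : t ≠ 1 := (rk_pos_iff t).1 (by omega)
      refine ⟨t, h6, hne, by rw [h7]; exact h5, ?_⟩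
      rw [h7, (hk2 t).2 ⟨h8, h7, h9.2 trivial⟩]
  · intro t s h1 h3 h4 h5 h6 h7
    have key := og_conj_iff h2 hQ t s h1 h3
    constructor
    · rintro ⟨c, hc1, hc2⟩
      obtain ⟨h8, h9⟩ := key.1 ⟨c, hc2⟩
      refine Prod.ext h8 ?_
      change kindP m t = kindP m s
      by_cases halt : ∀ v, Qplus m F (t.1 v - v) = 0
      · by_cases hr : rk t = m
        · have hE : Even m := hr ▸ h6
          have hU₁ : IsLagr (Qplus m F) m (Rg t) := isLagr_Rg t halt hr
          have hU₂ : IsLagr (Qplus m F) m (Rg s) := isLagr_Rg s (h9.1 halt) (by omega)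
          have h10 := (omega_conj_lagr h2 hQ hfin hV hE t s c hc2 hU₁).1 ⟨c, hc1, hc2⟩
          have hd : finrank F (Rg t ⊓ Rg s : Submodule F _) ≤ m := by
            have := Submodule.finrank_mono (inf_le_left : Rg t ⊓ Rg s ≤ Rg t)
            rwa [hU₁.dim] at this
          have h11 : Par m (Rg t) (Rg s) := by
            rw [Par, Nat.even_sub hd]
            tauto
          have h12 := par_trans hQ hfin hV hU₀ hU₁ hU₂
          have h13 : Par m (U0P m F) (Rg t) ↔ Par m (U0P m F) (Rg s) := by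
            rw [h12]
            tauto
          have h14 : kindP m t = 2 ↔ kindP m s = 2 := by
            rw [hk2, hk2]
            have : rk s = m := by omega
            simp only [hr, this, true_and, h13]
            constructor
            · exact fun h => ⟨h9.1 h.1, h.2⟩
            · exact fun h => ⟨h9.2 h.1, h.2⟩
          have h15 : kindP m t = 0 ↔ kindP m s = 0 := by
            rw [hk1, hk1, h9]
          have h16 := hk3 t
          have h17 := hk3 s
          omega
        · have h14 : kindP m t = 2 ↔ kindP m s = 2 := by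
            rw [hk2, hk2]
            have : rk s ≠ m := by omega
            simp [hr, this]
          have h15 : kindP m t = 0 ↔ kindP m s = 0 := by
            rw [hk1, hk1, h9]
          have h16 := hk3 t
          have h17 := hk3 s
          omega
      · have h15 : kindP m t = 0 := (hk1 t).2 halt
        have h16 : kindP m s = 0 := (hk1 s).2 (fun h => halt (h9.2 h))
        rw [h15, h16]
    · intro h8
      have h9 : rk t = rk s := congrArg Prod.fst h8
      have h10 : kindP m t = kindP m s := congrArg Prod.snd h8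
      have h11 : (∀ v, Qplus m F (t.1 v - v) = 0) ↔ (∀ v, Qplus m F (s.1 v - v) = 0) := by
        rw [← not_iff_not, ← hk1, ← hk1, h10]
      obtain ⟨g, hg⟩ := key.2 ⟨h9, h11⟩
      rcases exists_fixed_nonsing h2 hQ t h1 with ⟨u, hu, htu⟩ | ⟨h12, h13⟩
      · exact omega_conj_of_fixed_top h2 hQ htop t s g hg hu htu
      · have hr : rk t = m := by omega
        have hE : Even m := hr ▸ h6
        have hU₁ : IsLagr (Qplus m F) m (Rg t) := isLagr_Rg t h13 hr
        have hU₂ : IsLagr (Qplus m F) m (Rg s) := isLagr_Rg s (h11.1 h13) (by omega)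
        have h14 : Par m (U0P m F) (Rg t) ↔ Par m (U0P m F) (Rg s) := by
          have h15 : kindP m t = 2 ↔ kindP m s = 2 := by rw [h10]
          rw [hk2, hk2] at h15
          have : rk s = m := by omega
          simpa [hr, this, h13, h11.1 h13] using h15
        have h15 := par_trans hQ hfin hV hU₀ hU₁ hU₂
        have h16 : Par m (Rg t) (Rg s) := by
          tauto
        have hd : finrank F (Rg t ⊓ Rg s : Submodule F _) ≤ m := by
          have := Submodule.finrank_mono (inf_le_left : Rg t ⊓ Rg s ≤ Rg t)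
          rwa [hU₁.dim] at this
        rw [Par, Nat.even_sub hd] at h16
        refine (omega_conj_lagr h2 hQ hfin hV hE t s g hg hU₁).2 ?_
        tauto

end plus

end Cfsg.Agent.Lib.InvC2
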