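import Mathlib
import Cfsg.Agent.Lib.InvC2.Forms
import Cfsg.Agent.Lib.InvC2.SpMat

/-!
The number of classes of involutions of the symplectic group in characteristic two.
-/

set_option autoImplicit false
set_option linter.unusedSectionVars false
set_option linter.unusedVariables false

open scoped Matrix

namespace Cfsg.Agent.Lib.InvC2

open Cfsg.Agent.Lib.Classical Cfsg.Agent.Lib.Classical.Witt Cfsg.Agent.Lib.Classical.Abs Cfsg.Agent.Lib.Classical.Orth
open Cfsg.Agent.Lib.Known3.OmegaTrans Cfsg.Agent.Lib.Known3.OmegaCalc Cfsg.Agent.Lib.Known3.QuadIso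
open Cfsg.Agent.Lib.Known3.Spinor Cfsg.Agent.Lib.Known3.OmegaSum
open Module Matrix

local notation "P" => QuadraticMap.polarBilin

variable {F : Type*} [Field F] [Fintype F] [CharP F 2] {m : ℕ}

local notation "II" => Fin m ⊕ Fin m
local notation "SpG" => SpGp m F

lemma sympForm_eq_polar (u v : II → F) : Cfsg.sympForm m F u v = P (Qplus m F) u v := by
  rw [sympForm_apply, polar_Qplus]
  refine Finset.sum_congr rfl fun i _ => ?_
  rw [CharTwo.sub_eq_add, add_comm]

/-- An element of `O⁺` gives an element of `Sp`. -/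
noncomputable def spOfOG (t : OG (Qplus m F)) : SpG :=
  ⟨(((toOG (Qplus m F)).symm t : Cfsg.isometryGroup F (⇑(Qplus m F))) : Matrix.GeneralLinearGroup II F).1, by
    rw [mem_symplecticGroup_iff_preserves]
    intro u v
    rw [toOG_symm_apply, toOG_symm_apply, sympForm_eq_polar, sympForm_eq_polar, OG_polar]⟩

lemma spOfOG_mulVec (t : OG (Qplus m F)) (v : II → F) : ((spOfOG t : SpG) : Matrix II II F) *ᵥ v = t.1 v :=
  toOG_symm_apply _ t v

lemma spOfOG_rank (t : OG (Qplus m F)) : ((spOfOG t : Matrix II II F) - 1).rank = rk t := by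
  have := rk_toOG (Qplus m F) ((toOG (Qplus m F)).symm t)
  rw [MulEquiv.apply_symm_apply] at this
  exact this.symm

lemma spOfOG_chi (t : OG (Qplus m F)) (v : II → F) : chi (spOfOG t) v = Qplus m F (t.1 v - v) := by
  rw [chi, spOfOG_mulVec, sympForm_eq_polar, Q_res CharTwo.two_eq_zero, pol_comm]

lemma spOfOG_mul (t : OG (Qplus m F)) (h : t * t = 1) : spOfOG t * spOfOG t = 1 := by
  apply Subtype.ext
  apply Matrix.mulVec_injective
  funext v
  change (((spOfOG t : SpG) : Matrix II II F) * ((spOfOG t : SpG) : Matrix II II F)) *ᵥ v = (1 : Matrix II II F) *ᵥ v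
  rw [← Matrix.mulVec_mulVec, spOfOG_mulVec, spOfOG_mulVec, ← Orth.mul_apply', h, Matrix.one_mulVec]
  rfl

lemma rank_pos_of_ne (a : SpG) (h : a ≠ 1) : 0 < ((a : Matrix II II F) - 1).rank := by
  rw [pos_iff_ne_zero]
  intro h0
  apply h
  apply Subtype.ext
  rw [Matrix.rank, Submodule.finrank_eq_zero, LinearMap.range_eq_bot] at h0
  apply sub_eq_zero.1
  apply Matrix.mulVec_injective
  funext v
  have := congrArg (fun f => f v) h0
  simpa [Matrix.sub_mulVec] using this

lemma rank_le_m (a : SpG) (h : a * a = 1) : ((a : Matrix II II F) - 1).rank ≤ m := by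
  have h2 : (2 : F) = 0 := CharTwo.two_eq_zero
  rw [← finrank_RR_spE a h]
  have h3 : RR (spE a h) ≤ LinearMap.ker (NN (spE a h)) := by
    rintro _ ⟨v, rfl⟩
    exact NN_NN h2 (fun v => by simp [Matrix.mulVec_mulVec, matsq h]) v
  have h4 := Submodule.finrank_mono h3
  have h5 := LinearMap.finrank_range_add_finrank_ker (NN (spE a h))
  have h6 : finrank F (II → F) = 2 * m := by
    rw [Module.finrank_fintype_fun_eq_card]
    simp [two_mul]
  change finrank F (RR (spE a h)) + _ = _ at h5
  omega

/-- The invariant in `Sp`. -/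
noncomputable def invarS (a : SpG) : ℕ × Bool := (((a : Matrix II II F) - 1).rank, @decide (∀ v, chi a v = 0) (Classical.propDecidable _))

/-- The number of classes of involutions of `Sp`. -/
theorem count_sp : Nat.card {C : ConjClasses ↥(Matrix.symplecticGroup (Fin m) F) // ∃ g : Matrix.symplecticGroup (Fin m) F, ConjClasses.mk g = C ∧ orderOf g = 2} = m + m / 2 := by
  have h2 : (2 : F) = 0 := CharTwo.two_eq_zero
  rw [← card_Sset]
  apply card_invol_classes invarS
  · intro a ha
    obtain ⟨h1, h3⟩ := (orderOf_two_iff a).1 ha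
    have hpos := rank_pos_of_ne a h3
    by_cases h : ∀ v, chi a v = 0
    · have e : invarS a = (((a : Matrix II II F) - 1).rank, true) := by simp [invarS, h]
      rw [e, mem_Sset_true]
      exact ⟨hpos, rank_le_m a h1, even_rank_of_chi a h⟩
    · have e : invarS a = (((a : Matrix II II F) - 1).rank, false) := by simp [invarS, h]
      rw [e, mem_Sset_false]
      exact ⟨hpos, rank_le_m a h1⟩
  · intro x hx
    obtain ⟨t, h1, h3, h4⟩ := exists_of_Sset (Q := Qplus m F) (a := m) (b := m)
      (fun s h1 h3 => (hfPlus m).rep_nonalt h2 h1 h3) (fun k _ h3 => (hfPlus m).rep_alt h2 h3) x hx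
    have hpos := (rk_pos_iff t).2 h3
    have hne : spOfOG t ≠ 1 := by
      intro h
      rw [← spOfOG_rank, h] at hpos
      simp at hpos
    refine ⟨spOfOG t, (orderOf_two_iff _).2 ⟨spOfOG_mul t h1, hne⟩, ?_⟩
    rw [← h4]
    simp only [invarS, invar, spOfOG_rank]
    congr 2
    apply propext
    simp only [spOfOG_chi]
  · intro a b ha hb
    obtain ⟨h1, h3⟩ := (orderOf_two_iff a).1 ha
    obtain ⟨h4, h5⟩ := (orderOf_two_iff b).1 hb
    rw [sp_conj_iff a b h1 h4]
    simp only [invarS, Prod.mk.injEq, decide_eq_decide]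

end Cfsg.Agent.Lib.InvC2
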